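import Cfsg.Agent.Lib.AlperinDade.Main
import Cfsg.Agent.Lib.Blocks.Induced

/-!
# Characters of `p'`-degree over members of the principal block of a subgroup containing `P C_G(P)`
-/

set_option linter.unusedSectionVars false
set_option autoImplicit false
set_option linter.style.haveILetI false

namespace Cfsg.Agent.Lib.AlperinDade.Cover

open Cfsg MonoidAlgebra
open Cfsg.Agent.Lib.Blocks.Local Cfsg.Agent.Lib.Blocks.Central Cfsg.Agent.Lib.Blocks.Brauer
open Cfsg.Agent.Lib.Blocks.Induced
open Cfsg.Agent.Lib.Char.Basic Cfsg.Agent.Lib.Char.Ortho Cfsg.Agent.Lib.Char.Complete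
open scoped ComplexConjugate

universe u

variable {G : Type u} [Group G] [Fintype G] {M : Ideal AlgInt} {p : ℕ}

/-- If `H` contains `P C_G(P)` for a `p`-subgroup `P`, the sum of a `P`-invariant function over `G` and over
`H` agree modulo the local ideal. -/
theorem sum_sub_sum_subgroup_mem (hM : IsPModular p M) {H P : Subgroup G} [Fintype H] (hPH : P ≤ H)
    (hCH : Subgroup.centralizer (P : Set G) ≤ H) (hp : IsPGroup p P) (f : G → ℂ)
    (hf : ∀ g, MemLocalRing M (f g)) (hinv : ∀ (x : P) (g : G), f ((x : G) * g * (x : G)⁻¹) = f g) :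
    MemLocalIdeal M (∑ g : G, f g - ∑ h : H, f h) := by
  classical
  haveI := isPrime_of_pModular hM
  -- `P` acts by conjugation
  letI : MulAction P G :=
    { smul := fun x g => (x : G) * g * (x : G)⁻¹
      one_smul := fun g => by
        change ((1 : P) : G) * g * ((1 : P) : G)⁻¹ = g
        simp
      mul_smul := fun x y g => by
        change ((x * y : P) : G) * g * ((x * y : P) : G)⁻¹ = (x : G) * ((y : G) * g * (y : G)⁻¹) * (x : G)⁻¹
        push_cast
        group }
  have hsm : ∀ (x : P) (g : G), x • g = (x : G) * g * (x : G)⁻¹ := fun _ _ => rfl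
  have key := sum_zero_on_fixed_mem hM hp (fun g => if g ∈ H then 0 else f g)
    (by
      intro q g
      have hm : q • g ∈ H ↔ g ∈ H := by
        rw [hsm]
        have hq : (q : G) ∈ H := hPH q.2
        constructor
        · intro h
          have := H.mul_mem (H.mul_mem (H.inv_mem hq) h) hq
          simpa [mul_assoc] using this
        · intro h
          exact H.mul_mem (H.mul_mem hq h) (H.inv_mem hq)
      simp only [hm]
      split_ifs
      · rfl
      · exact hinv q g)
    (fun g => by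
      split_ifs
      · exact memLocalRing_zero
      · exact hf g)
    (fun g hg => by
      rw [if_pos]
      apply hCH
      rw [Subgroup.mem_centralizer_iff]
      intro x hx
      have := hg ⟨x, hx⟩
      rw [hsm] at this
      have h2 : (x : G) * g = g * x := by
        calc (x : G) * g = ((x : G) * g * (x : G)⁻¹) * x := by group
          _ = g * x := by rw [this]
      exact h2)
  have h1 : ∑ g : G, f g - ∑ h : H, f h = ∑ g : G, (if g ∈ H then 0 else f g) := by
    have h2 : ∑ h : H, f h = ∑ g : G, (if g ∈ H then f g else 0) := by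
      rw [← Finset.sum_filter]
      exact (Finset.sum_subtype _ (by simp) f).symm
    rw [h2, ← Finset.sum_sub_distrib]
    refine Finset.sum_congr rfl fun g _ => ?_
    split_ifs <;> simp
  rw [h1]
  exact key

theorem omegaHom_one_restr {H : Subgroup G} [Fintype H] (z : Subalgebra.center ℂ (GA G)) :
    omegaHom (⟨fun _ => 1, Cfsg.Agent.Lib.Char.Burnside.isIrrCharacter_one⟩ : IrrCharacter H) (restrCenter H z) =
      ∑ h : H, (z : GA G).coeff (h : G) := by
  rw [omegaHom_apply, lin_apply]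
  change (∑ h : H, (z : GA G).coeff (h : G) * 1) / 1 = _
  simp

theorem sum_coeff_idem_of_mem (B : Set (IrrCharacter G)) [Fintype (IrrCharacter G)]
    (h1 : (⟨fun _ => 1, Cfsg.Agent.Lib.Char.Burnside.isIrrCharacter_one⟩ : IrrCharacter G) ∈ B) :
    ∑ g : G, blockCoeff B g = 1 := by
  classical
  have := omegaHom_idem B (⟨fun _ => 1, Cfsg.Agent.Lib.Char.Burnside.isIrrCharacter_one⟩ : IrrCharacter G)
  rw [if_pos h1, omegaHom_apply, lin_apply] at this
  change (∑ g : G, blockCoeff B g * 1) / 1 = 1 at this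
  simpa using this

/-- The expansion of the restricted idempotent. -/
theorem expansion {H : Subgroup G} [Fintype H] [Fintype (IrrCharacter G)] [Fintype (IrrCharacter H)]
    (B : Set (IrrCharacter G)) [DecidablePred (· ∈ B)] (ψ : IrrCharacter H) (m : IrrCharacter G → ℕ)
    (hm : ∀ χ : IrrCharacter G, classInner (fun h : H => (χ : G → ℂ) h) (ψ : H → ℂ) = m χ) :
    ((H.index * charDegree (ψ : H → ℂ) : ℕ) : ℂ) * omegaHom ψ (restrCenter H (idem B)) =
      ((∑ χ : IrrCharacter G, if χ ∈ B then charDegree (χ : G → ℂ) * m χ else 0 : ℕ) : ℂ) := by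
  have hψ0 : (ψ : H → ℂ) 1 ≠ 0 := irr_one_ne_zero ψ.2
  have hdeg : (charDegree (ψ : H → ℂ) : ℂ) = (ψ : H → ℂ) 1 :=
    Cfsg.Agent.Lib.Char.Degree.charDegree_natCast (isCharacter_of_isIrrCharacter ψ.2)
  have hG0 : (Nat.card G : ℂ) ≠ 0 := by exact_mod_cast Nat.card_pos.ne'
  have hH0 : (Nat.card H : ℂ) ≠ 0 := by exact_mod_cast Nat.card_pos.ne'
  have hidx : (Nat.card G : ℂ) = Nat.card H * H.index := by
    exact_mod_cast (Subgroup.card_mul_index H).symm
  have hI0 : (H.index : ℂ) ≠ 0 := by
    intro h0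
    rw [h0, mul_zero] at hidx
    exact hG0 hidx
  rw [omegaHom_apply, lin_apply]
  have h1 : ∀ h : H, ((restrCenter H (idem B) : Subalgebra.center ℂ (GA H)) : GA H).coeff h =
      blockCoeff B (h : G) := fun h => rfl
  simp only [h1, blockCoeff_eq_sum]
  have h2 : ∀ χ : IrrCharacter G, ∑ h : H, (χ : G → ℂ) h * conj ((ψ : H → ℂ) h) =
      (Nat.card H : ℂ) * m χ := by
    intro χ
    rw [← hm χ, classInner_def]
    rw [mul_inv_cancel_left₀ hH0]
  -- swap the sums
  have h3 : ∑ h : H, ((Nat.card G : ℂ)⁻¹ * ∑ χ : IrrCharacter G,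
        if χ ∈ B then (χ : G → ℂ) 1 * conj ((χ : G → ℂ) h) else 0) * (ψ : H → ℂ) h =
      (Nat.card G : ℂ)⁻¹ * ∑ χ : IrrCharacter G, if χ ∈ B then
        (χ : G → ℂ) 1 * ∑ h : H, conj ((χ : G → ℂ) h) * (ψ : H → ℂ) h else 0 := by
    simp only [Finset.sum_mul, mul_assoc, ← Finset.mul_sum]
    congr 1
    rw [Finset.sum_comm]
    refine Finset.sum_congr rfl fun χ _ => ?_
    by_cases hχ : χ ∈ B
    · simp only [if_pos hχ, Finset.mul_sum, mul_assoc]
    · simp only [if_neg hχ, zero_mul, Finset.sum_const_zero]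
  rw [h3]
  have h4 : ∀ χ : IrrCharacter G, ∑ h : H, conj ((χ : G → ℂ) h) * (ψ : H → ℂ) h =
      (Nat.card H : ℂ) * m χ := by
    intro χ
    have := congrArg (starRingEnd ℂ) (h2 χ)
    simp only [map_sum, map_mul, Complex.conj_conj, Complex.conj_natCast] at this
    rw [← this]
  simp only [h4]
  push_cast
  rw [hdeg, hidx]
  have h5 : ∀ χ : IrrCharacter G, (if χ ∈ B then (χ : G → ℂ) 1 * ((Nat.card H : ℂ) * m χ) else 0) =
      (Nat.card H : ℂ) * (if χ ∈ B then (charDegree (χ : G → ℂ) : ℂ) * m χ else 0) := by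
    intro χ
    split_ifs
    · rw [Cfsg.Agent.Lib.Char.Degree.charDegree_natCast (isCharacter_of_isIrrCharacter χ.2)]
      ring
    · simp
  simp only [h5, ← Finset.mul_sum]
  have h6 : (∑ χ : IrrCharacter G, (if χ ∈ B then ((charDegree (χ : G → ℂ) * m χ : ℕ) : ℂ) else 0)) =
      ∑ χ : IrrCharacter G, if χ ∈ B then (charDegree (χ : G → ℂ) : ℂ) * m χ else 0 := by
    refine Finset.sum_congr rfl fun χ _ => ?_
    split_ifs
    · push_cast
      rfl
    · rfl
  field_simp

/-- A member of `B₀(H)` of degree prime to `p` lies under a member of `B₀(G)` of degree prime to `p`. -/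
theorem exists_constituent_principal (hM : IsPModular p M) {H P : Subgroup G} [Fintype H] (hPH : P ≤ H)
    (hCH : Subgroup.centralizer (P : Set G) ≤ H) (hp : IsPGroup p P) (hi : ¬ p ∣ H.index)
    (ψ : IrrCharacter H) (hψ : ψ ∈ principalBlock M H) (hdeg : ¬ p ∣ charDegree (ψ : H → ℂ)) :
    ∃ χ : IrrCharacter G, χ ∈ principalBlock M G ∧ ¬ p ∣ charDegree (χ : G → ℂ) ∧
      classInner (fun h : H => (χ : G → ℂ) h) (ψ : H → ℂ) ≠ 0 := by
  classical
  haveI := isPrime_of_pModular hM
  have := finite_irrCharacter (G := G)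
  letI := Fintype.ofFinite (IrrCharacter G)
  have := finite_irrCharacter (G := H)
  letI := Fintype.ofFinite (IrrCharacter H)
  let oneG : IrrCharacter G := ⟨fun _ => 1, Cfsg.Agent.Lib.Char.Burnside.isIrrCharacter_one⟩
  let oneH : IrrCharacter H := ⟨fun _ => 1, Cfsg.Agent.Lib.Char.Burnside.isIrrCharacter_one⟩
  have hBb : IsPBlock M (principalBlock M G) := ⟨oneG, rfl⟩
  have hoG : oneG ∈ principalBlock M G := mem_blockOf_self oneG
  have hzloc : idem (principalBlock M G) ∈ localCenter M G := idem_mem_localCenter hBb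
  -- congruences
  have hψ' : SameBlock M ((oneH : IrrCharacter H) : H → ℂ) (ψ : H → ℂ) := hψ
  have h1 : MemLocalIdeal M (omegaHom oneH (restrCenter H (idem (principalBlock M G))) -
      omegaHom ψ (restrCenter H (idem (principalBlock M G)))) :=
    omegaHom_sub_mem_of_sameBlock hψ' (restrCenter_mem_localCenter H hzloc)
  have h2 : omegaHom oneH (restrCenter H (idem (principalBlock M G))) =
      ∑ h : H, blockCoeff (principalBlock M G) (h : G) := omegaHom_one_restr _
  have h3 : ∑ g : G, blockCoeff (principalBlock M G) g = 1 := sum_coeff_idem_of_mem _ hoG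
  have h4 : MemLocalIdeal M (∑ g : G, blockCoeff (principalBlock M G) g -
      ∑ h : H, blockCoeff (principalBlock M G) (h : G)) :=
    sum_sub_sum_subgroup_mem hM hPH hCH hp (fun g => blockCoeff (principalBlock M G) g)
      (fun g => memLocalRing_blockCoeff hBb g)
      (fun x g => blockCoeff_conj_invariant _ g x)
  rw [h3, ← h2] at h4
  -- `ω_ψ(w) ≡ 1`
  have h5 : MemLocalIdeal M (1 - omegaHom ψ (restrCenter H (idem (principalBlock M G)))) := by
    have := memLocalIdeal_add h4 h1
    convert this using 1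
    ring
  have h6 : ¬ MemLocalIdeal M (omegaHom ψ (restrCenter H (idem (principalBlock M G)))) := by
    intro h
    have := memLocalIdeal_add h5 h
    rw [sub_add_cancel] at this
    exact one_notMemLocalIdeal this
  -- multiplicities
  have hn0 := fun χ : IrrCharacter G =>
    exists_nat_classInner (isCharacter_restrict H (isCharacter_of_isIrrCharacter χ.2))
      (isCharacter_of_isIrrCharacter ψ.2)
  choose m hm using hn0
  have hexp := expansion (principalBlock M G) ψ m hm
  -- conclusion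
  have hpT : ¬ p ∣ (∑ χ : IrrCharacter G, if χ ∈ principalBlock M G then charDegree (χ : G → ℂ) * m χ else 0) := by
    intro hdvd
    have h7 := (natCast_memLocalIdeal_iff hM _).mpr hdvd
    rw [← hexp] at h7
    have h8 : ¬ MemLocalIdeal M ((H.index * charDegree (ψ : H → ℂ) : ℕ) : ℂ) := by
      rw [natCast_memLocalIdeal_iff hM]
      intro h
      rcases (prime_of_pModular hM).dvd_mul.mp h with h | h
      · exact hi h
      · exact hdeg h
    exact h6 (memLocalIdeal_of_mul (memLocalRing_natCast _) h8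
      (omegaHom_mem_local ψ (restrCenter_mem_localCenter H hzloc)) h7)
  by_contra hall
  push Not at hall
  apply hpT
  refine Finset.dvd_sum fun χ _ => ?_
  split_ifs with hχ
  · by_cases hd : p ∣ charDegree (χ : G → ℂ)
    · exact hd.mul_right _
    · have := hall χ hχ hd
      rw [hm χ] at this
      have : m χ = 0 := by exact_mod_cast this
      rw [this, mul_zero]
      exact dvd_zero _
  · exact dvd_zero _

/-- Constituents of constituents. -/
theorem classInner_comp_ne_zero {H K : Type*} [Group H] [Group K] [Fintype H] [Fintype K] (f : K →* H)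
    {F : H → ℂ} (hF : IsCharacter H F) {ψ : H → ℂ} (hψ : IsIrrCharacter H ψ) {θ : K → ℂ}
    (hθ : IsCharacter K θ) (h1 : classInner F ψ ≠ 0) (h2 : classInner (ψ ∘ f) θ ≠ 0) :
    classInner (F ∘ f) θ ≠ 0 := by
  classical
  have := finite_irrCharacter (G := H)
  letI := Fintype.ofFinite (IrrCharacter H)
  obtain ⟨a, rfl⟩ := exists_nat_combination hF
  have hn0 := fun ξ : IrrCharacter H =>
    exists_nat_classInner (isCharacter_comp f (isCharacter_of_isIrrCharacter ξ.2)) hθ
  choose n hn using hn0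
  have hexp : classInner ((∑ i, a i • (i : H → ℂ)) ∘ f) θ = ((∑ i, a i * n i : ℕ) : ℂ) := by
    rw [classInner_def]
    push_cast
    simp only [Function.comp_apply, Finset.sum_apply, Pi.smul_apply, nsmul_eq_mul, Finset.sum_mul,
      Finset.mul_sum, Pi.mul_apply, Pi.natCast_apply]
    rw [Finset.sum_comm]
    refine Finset.sum_congr rfl fun i _ => ?_
    rw [← hn i, classInner_def]
    simp only [Function.comp_apply, Finset.mul_sum]
    refine Finset.sum_congr rfl fun k _ => ?_
    ring
  rw [hexp]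
  have hai : a ⟨ψ, hψ⟩ ≠ 0 := by
    intro h0
    apply h1
    have := classInner_of_nat_combination a ⟨ψ, hψ⟩
    rw [h0] at this
    simpa using this
  have hni : n ⟨ψ, hψ⟩ ≠ 0 := by
    intro h0
    apply h2
    have := hn ⟨ψ, hψ⟩
    rw [h0] at this
    simpa using this
  have hpos : 0 < ∑ i, a i * n i :=
    Finset.sum_pos' (fun _ _ => Nat.zero_le _) ⟨⟨ψ, hψ⟩, Finset.mem_univ _, Nat.mul_pos (Nat.pos_of_ne_zero hai) (Nat.pos_of_ne_zero hni)⟩
  exact_mod_cast hpos.ne'

/-- **S4583**: a member of the principal block of `N` of degree prime to `p` that extends to `NP`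
lies under a member of the principal block of `G` of degree prime to `p`. -/
theorem exists_over {N P H : Subgroup G} [hN : N.Normal] (hM : IsPModular p M) (hp : IsPGroup p P)
    (hP : ¬ p ∣ P.index) (θ : IrrCharacter N) (hθ : θ ∈ principalBlock M N)
    (hdeg : ¬ p ∣ charDegree (θ : N → ℂ)) (hH : H = N ⊔ P) (η : IrrCharacter H)
    (hη : ∀ n : N, (η : H → ℂ) ⟨n, by rw [hH]; exact Subgroup.mem_sup_left n.2⟩ = (θ : N → ℂ) n) :
    ∃ χ : IrrCharacter G, χ ∈ principalBlock M G ∧ ¬ p ∣ charDegree (χ : G → ℂ) ∧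
      haveI := Fintype.ofFinite N; classInner (fun n : N => (χ : G → ℂ) n) (θ : N → ℂ) ≠ 0 := by
  classical
  haveI := isPrime_of_pModular hM
  haveI : Fact p.Prime := ⟨hM.1⟩
  have hNH : N ≤ H := by rw [hH]; exact le_sup_left
  have hPH : P ≤ H := by rw [hH]; exact le_sup_right
  letI : Fintype N := Fintype.ofFinite N
  letI : Fintype H := Fintype.ofFinite H
  -- `η` is in the principal block of `H`
  have hηB : η ∈ principalBlock M H := by
    obtain ⟨θ', hθ', he⟩ := Cfsg.Agent.Lib.AlperinDade.Main.exists_subgroupOf hNH hθ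
    let oneH : IrrCharacter H := ⟨fun _ => 1, Cfsg.Agent.Lib.Char.Burnside.isIrrCharacter_one⟩
    let oneN : IrrCharacter (N.subgroupOf H) := ⟨fun _ => 1, Cfsg.Agent.Lib.Char.Burnside.isIrrCharacter_one⟩
    letI : Fintype (N.subgroupOf H) := Fintype.ofFinite _
    haveI hn' : (N.subgroupOf H).Normal := Subgroup.normal_subgroupOf
    have hidx : ∃ k : ℕ, (N.subgroupOf H).index = p ^ k := by
      have hpg : IsPGroup p (H ⧸ N.subgroupOf H) := by
        intro x
        obtain ⟨⟨y, hy⟩, rfl⟩ := QuotientGroup.mk_surjective x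
        have hy' := hy
        rw [hH, ← SetLike.mem_coe, Subgroup.normal_mul, Set.mem_mul] at hy'
        obtain ⟨n, hn, c, hc, rfl⟩ := hy'
        obtain ⟨k, hk⟩ := hp ⟨c, hc⟩
        refine ⟨k, ?_⟩
        have hk' : c ^ p ^ k = 1 := congrArg Subtype.val hk
        have e1 : (⟨n * c, hy⟩ : H) = ⟨n, hNH hn⟩ * ⟨c, hPH hc⟩ := rfl
        have e2 : ((⟨n, hNH hn⟩ : H) : H ⧸ N.subgroupOf H) = 1 := (QuotientGroup.eq_one_iff _).mpr hn
        have e3 : (⟨c, hPH hc⟩ : H) ^ p ^ k = 1 := Subtype.ext hk'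
        rw [e1, QuotientGroup.mk_mul, e2, one_mul, ← QuotientGroup.mk_pow, e3, QuotientGroup.mk_one]
      obtain ⟨t, ht⟩ := (IsPGroup.iff_card).mp hpg
      exact ⟨t, by rw [Subgroup.index_eq_card, ht]⟩
    have hres : (fun n : N.subgroupOf H => (η : H → ℂ) n) = (θ' : N.subgroupOf H → ℂ) := by
      funext n
      exact (hη ⟨n, n.2⟩).trans (he ⟨n, n.2⟩).symm
    have h2 := Cfsg.Agent.Lib.BlockT.NormalP.sameBlock_of_constituents hM (χ := oneH) (χ' := η)
      (N := N.subgroupOf H) hn' hidx (θ := oneN) (θ' := θ') hθ'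
      (by
        have : classInner (fun n : N.subgroupOf H => (oneH : H → ℂ) n) (oneN : N.subgroupOf H → ℂ) = 1 :=
          classInner_self_of_isIrr oneN.2
        rw [this]
        exact one_ne_zero)
      (by
        rw [hres, classInner_self_of_isIrr θ'.2]
        exact one_ne_zero)
    exact h2
  -- the bigger subgroup
  set C := Subgroup.centralizer (P : Set G) with hC
  set H₂ : Subgroup G := H ⊔ C with hH₂
  have hHH₂ : H ≤ H₂ := le_sup_left
  have hCH₂ : C ≤ H₂ := le_sup_right
  letI : Fintype H₂ := Fintype.ofFinite H₂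
  have hnorm : H₂ ≤ Subgroup.normalizer (H : Set G) := by
    refine sup_le Subgroup.le_normalizer ?_
    intro c hc
    rw [Subgroup.mem_normalizer_iff]
    -- `c` normalizes `N` and centralizes `P`
    have key : ∀ (c : G), c ∈ C → ∀ x ∈ H, c * x * c⁻¹ ∈ H := by
      intro c hc x hx
      rw [hH, ← SetLike.mem_coe, Subgroup.normal_mul, Set.mem_mul] at hx
      obtain ⟨n, hn, y, hy, rfl⟩ := hx
      have e : c * (n * y) * c⁻¹ = (c * n * c⁻¹) * (c * y * c⁻¹) := by group
      rw [e]
      have hy' : c * y * c⁻¹ = y := by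
        have := (Subgroup.mem_centralizer_iff.mp hc) y hy
        rw [← this]
        group
      rw [hy']
      exact H.mul_mem (hNH (hN.conj_mem n hn c)) (hPH hy)
    intro x
    constructor
    · exact key c hc x
    · intro h
      have := key c⁻¹ (C.inv_mem hc) _ h
      simpa [mul_assoc] using this
  haveI hn₂ : (H.subgroupOf H₂).Normal := (Subgroup.normal_subgroupOf_iff_le_normalizer hHH₂).mpr hnorm
  have hsup₂ : H.subgroupOf H₂ ⊔ Subgroup.centralizer ((P.subgroupOf H₂ : Subgroup H₂) : Set H₂) = ⊤ := by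
    rw [eq_top_iff]
    rintro ⟨y, hy⟩ -
    set K := H.subgroupOf H₂ ⊔ Subgroup.centralizer ((P.subgroupOf H₂ : Subgroup H₂) : Set H₂) with hK
    have h1 : H₂ ≤ K.map H₂.subtype := by
      refine sup_le ?_ ?_
      · intro x hx
        exact ⟨⟨x, hHH₂ hx⟩, Subgroup.mem_sup_left hx, rfl⟩
      · intro x hx
        refine ⟨⟨x, hCH₂ hx⟩, Subgroup.mem_sup_right ?_, rfl⟩
        rw [Subgroup.mem_centralizer_iff]
        intro u hu
        apply Subtype.ext
        exact (Subgroup.mem_centralizer_iff.mp hx) u hu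
    obtain ⟨k, hk, hke⟩ := h1 hy
    have : k = ⟨y, hy⟩ := Subtype.ext hke
    rwa [← this]
  have hPle : P.subgroupOf H₂ ≤ H.subgroupOf H₂ := fun x hx => hPH hx
  have hPi : ¬ p ∣ (P.subgroupOf H₂).index := by
    intro h
    apply hP
    have e3 : P.relIndex H₂ * H₂.index = P.index :=
      Subgroup.relIndex_mul_index (hPH.trans hHH₂)
    rw [← e3]
    exact Dvd.dvd.mul_right h _
  have hres := Cfsg.Agent.Lib.AlperinDade.Main.main_res (M := M) hM _ H₂ (H.subgroupOf H₂)
    (P.subgroupOf H₂) rfl hPle hPi hsup₂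
  obtain ⟨η', hη', he'⟩ := Cfsg.Agent.Lib.AlperinDade.Main.exists_subgroupOf hHH₂ hηB
  obtain ⟨ψ, ⟨hψ, hψe⟩, -⟩ := hres.2 η' hη'
  have hψval : ∀ x : H, (ψ : H₂ → ℂ) ⟨x, hHH₂ x.2⟩ = (η : H → ℂ) x := fun x =>
    (hψe ⟨⟨x, hHH₂ x.2⟩, x.2⟩).trans (he' x)
  have hψN : ∀ n : N, (ψ : H₂ → ℂ) ⟨n, hHH₂ (hNH n.2)⟩ = (θ : N → ℂ) n := fun n =>
    (hψval ⟨n, hNH n.2⟩).trans (hη n)
  have hψdeg : charDegree (ψ : H₂ → ℂ) = charDegree (θ : N → ℂ) := by
    unfold charDegree
    congr 2
    exact hψN 1
  have hH₂i : ¬ p ∣ H₂.index := fun h => hP (h.trans (Subgroup.index_dvd_of_le (hPH.trans hHH₂)))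
  obtain ⟨χ, hχ, hχd, hχc⟩ := exists_constituent_principal hM (H := H₂) (P := P) (hPH.trans hHH₂) hCH₂ hp hH₂i
    ψ hψ (by rw [hψdeg]; exact hdeg)
  refine ⟨χ, hχ, hχd, ?_⟩
  have := classInner_comp_ne_zero (Subgroup.inclusion (hNH.trans hHH₂))
    (isCharacter_restrict H₂ (isCharacter_of_isIrrCharacter χ.2)) ψ.2 (isCharacter_of_isIrrCharacter θ.2) hχc
    (by
      have e1 : (ψ : H₂ → ℂ) ∘ Subgroup.inclusion (hNH.trans hHH₂) = (θ : N → ℂ) := funext hψN
      rw [e1, classInner_self_of_isIrr θ.2]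
      exact one_ne_zero)
  exact this

end Cfsg.Agent.Lib.AlperinDade.Cover
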